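import Cfsg.Agent.M12Count.Glue
import Cfsg.Agent.M12Count.M12Side
import Cfsg.Agent.M12Count.CentQ

/-!
From the hypothesis on the counts to the local facts used for the recognition of `M₁₂`.
-/

set_option autoImplicit false

namespace CfsgLib.M12Count

universe u

/-- The local facts for a group with the order and the set of counts of `M₁₂`. -/
theorem exists_local_of_same {G : Type u} [Group G] [Finite G] (hsix : SixCases.{u})
    (hcard : Nat.card G = Nat.card ↥Cfsg.Spor.M12)
    (hnse : {c : ℕ | 0 < c ∧ ∃ n : ℕ, c = Nat.card {g : G // orderOf g = n}} =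
      {c : ℕ | 0 < c ∧ ∃ n : ℕ, c = Nat.card {g : ↥Cfsg.Spor.M12 // orderOf g = n}}) :
    Setup G ∧ ∃ t c : G, LocalFacts t c := by
  have hS := (countHyp_of_same countHyp_M12 hcard hnse).setup
  exact ⟨hS, hS.exists_local hsix⟩

end CfsgLib.M12Count
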